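import Cfsg.Agent.H9.Sp.Re9
import Cfsg.Agent.H9.Sp.Ext
import Cfsg.Agent.H6.El10

/-! Involutions of symplectic groups; elements of prime order normalising an extension field. -/

set_option autoImplicit false
set_option linter.unusedSimpArgs false
set_option linter.unusedSectionVars false
set_option linter.unusedVariables false

universe u

namespace Cfsg.Agent.LD

open Module Cfsg.Agent.H6 Cfsg.Agent.H6.El Cfsg.Agent.H9.Sp Polynomial
open scoped Pointwise

attribute [-simp] LinearEquiv.coe_inv Submodule.mem_map_equiv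

variable {F : Type u} [Field F] [Fintype F] {V : Type u} [AddCommGroup V] [Module F V]
  [FiniteDimensional F V]
variable {B : V →ₗ[F] V →ₗ[F] F} {f : End F V}

/-- the fixed space -/
noncomputable abbrev fixS (f : End F V) : Submodule F V := ⊤ ⊓ LinearMap.ker (aeval f (X - C (1 : F)))

theorem mem_fixS {v : V} : v ∈ fixS f ↔ f v = v := by
  simp [fixS, mem_fix, sub_eq_zero]

theorem fx_eq (f : End F V) : fx f ⊤ = finrank F (fixS f) := rfl

theorem nd_fixS (hB : Symp B) (hf : Is B f) (h2 : (2 : F) ≠ 0) (h : ∀ v, f (f v) = v) :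
    NdOn B (fixS f) := (ni_pm hB hf h2 h (ni_top hB) (c := 1) (by simp)).nd

theorem conj_pos (hB : Symp B) (h2 : (2 : F) ≠ 0) {x y : End F V} (hx : Is B x) (hy : Is B y)
    (hx2 : ∀ v, x (x v) = v) (hy2 : ∀ v, y (y v) = v) (h : fx x ⊤ = fx y ⊤) :
    ∃ g ∈ Sp B, ∀ w, g (x w) = y (g w) := by
  have n1 := nd_fixS hB hx h2 hx2
  have n2 := nd_fixS hB hy h2 hy2
  obtain ⟨g, hg, h1⟩ := nd_trans hB n1 n2 h
  refine ⟨g, hg, fun w => ?_⟩
  have a1 : y (g (w + x w)) = g (w + x w) :=
    mem_fixS.1 (h1 ▸ ⟨_, mem_fixS.2 (by rw [map_add, hx2, add_comm]), rfl⟩)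
  have a2 : ∀ u ∈ fixS y, B u (g (w - x w)) = 0 := by
    rw [← h1]
    rintro _ ⟨u, hu, rfl⟩
    have := hx u w
    rw [mem_fixS.1 hu] at this
    have h3 := hx u (x w)
    rw [mem_fixS.1 hu, hx2] at h3
    change B (g u) _ = 0
    rw [hg, map_sub, h3, sub_self]
  have a3 : y (g (w - x w)) + g (w - x w) = 0 := by
    refine n2.eq_zero (mem_fixS.2 (by rw [map_add, hy2, add_comm])) fun u hu => hB.comm.1 ?_
    have := hy u (g (w - x w))
    rw [mem_fixS.1 hu] at this
    rw [map_add, this, a2 u hu, add_zero]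
  apply smul_right_injective V h2
  simp only [map_add, map_sub] at a1 a3
  simp only [two_smul]
  linear_combination (norm := module) -a1 - a3

theorem conj_neg (hB : Symp B) (h2 : (2 : F) ≠ 0) {x y : End F V} (hx : Is B x) (hy : Is B y)
    (hx2 : ∀ v, x (x v) = -v) (hy2 : ∀ v, y (y v) = -v) :
    ∃ g ∈ Sp B, ∀ w, g (x w) = y (g w) := by
  have key : ∀ x : End F V, Is B x → (∀ v, x (x v) = -v) → JS B x (-1) := fun x hx hx2 =>
    ⟨hB, by simpa using hx2, by simp, fun u v => by rw [← hx (x u), hx2]; simp, h2⟩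
  exact (key x hx hx2).conj (key y hy hy2)

/-- the reflection in a hyperbolic plane -/
def rf (B : V →ₗ[F] V →ₗ[F] F) (e f : V) : End F V :=
  1 - (2 : F) • ((B.flip f).smulRight e + (B e).smulRight f)

theorem rf_apply (e f v : V) : rf B e f v = v - (2 : F) • (B v f • e + B e v • f) := rfl

theorem rf_is (hB : Symp B) {e f : V} (h : B e f = 1) : Is B (rf B e f) := fun u v => by
  have h' : B f e = -1 := by rw [hB.skew, h]
  simp only [rf_apply, map_sub, map_smul, map_add, LinearMap.sub_apply, LinearMap.smul_apply,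
    LinearMap.add_apply, smul_eq_mul, h, h', hB.alt, hB.skew u e, hB.skew f v]
  ring

theorem rf_sq (hB : Symp B) {e f : V} (h : B e f = 1) (v : V) : rf B e f (rf B e f v) = v := by
  have h' : B f e = -1 := by rw [hB.skew, h]
  simp only [rf_apply, map_sub, map_smul, map_add, LinearMap.sub_apply, LinearMap.smul_apply,
    LinearMap.add_apply, smul_eq_mul, h, h', hB.alt]
  module

theorem rf_fx (hB : Symp B) (h2 : (2 : F) ≠ 0) {e f : V} (h : B e f = 1) :
    fx (rf B e f) ⊤ + 2 = finrank F V := by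
  have h' : B f e = -1 := by rw [hB.skew, h]
  have h1 := hB.finrank_perp (Submodule.span F {e, f})
  rw [finrank_pair hB (by simp [h])] at h1
  rw [← h1, fx_eq, add_comm]
  refine congrArg (fun K : Submodule F V => 2 + finrank F K) (Submodule.ext fun v => ?_)
  rw [mem_fixS, rf_apply, sub_eq_self, smul_eq_zero, or_iff_right h2]
  constructor
  · intro h3 k hk
    obtain ⟨a, b, rfl⟩ := Submodule.mem_span_pair.1 hk
    have h4 := congrArg (B e) h3
    have h5 := congrArg (B f) h3
    simp [hB.alt, h, h'] at h4 h5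
    simp [h4, hB.comm.1 h5]
  · intro h3
    rw [h3 e (left_mem_pair _ _), hB.comm.1 (h3 f (right_mem_pair _ _))]
    simp

theorem po_two_of (hB : Symp B) (hf : Is B f) (h : ∀ v, f (f v) = v) (h0 : 0 < fx f ⊤)
    (h1 : fx f ⊤ < finrank F V) : PO 2 B f := by
  refine ⟨hf, ⟨1, by ext v; simp [pow_two, h]⟩, fun c hc => ?_⟩
  obtain ⟨v, hv, hv0⟩ := exists_ne_zero_of_finrank (K := fixS f) h0
  have h3 := mem_fixS.1 hv
  rw [hc] at h3
  have h4 : c = 1 := smul_left_injective F hv0 (by simpa using h3)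
  rw [fx, kd_of_le fun w _ => mem_fix.2 (by simp [hc, h4]), finrank_top] at h1
  omega

theorem fx_four (hB : Symp B) (h2 : (2 : F) ≠ 0) (hn : finrank F V = 4) (hf : PO 2 B f)
    (h : ∀ v, f (f v) = v) : fx f ⊤ = 2 := by
  obtain ⟨c, hc⟩ := (nd_fixS hB hf.is h2 h).even hB
  have h1 : finrank F (fixS f) ≤ 4 := hn ▸ Submodule.finrank_le _
  rw [fx_eq]
  have h3 : finrank F (fixS f) ≠ 0 := fun h3 => hf.ns (-1) (by
    ext v
    have : f v + v ∈ fixS f := mem_fixS.2 (by rw [map_add, h, add_comm])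
    rw [Submodule.finrank_eq_zero.1 h3, Submodule.mem_bot] at this
    simpa using eq_neg_of_add_eq_zero_left this)
  have h4 : finrank F (fixS f) ≠ 4 := fun h4 => hf.ns 1 (by
    ext v
    have : v ∈ fixS f := Submodule.eq_top_of_finrank_eq (h4.trans hn.symm) ▸ Submodule.mem_top
    simpa using mem_fixS.1 this)
  omega

theorem exists_tv' (hB : Symp B) (hn : 2 ≤ finrank F V) {p : ℕ} [CharP F p] :
    ∃ f, PO p B f ∧ fx f ⊤ + 1 = finrank F V := by
  have : Nontrivial V := finrank_pos_iff.1 (show 0 < finrank F V by omega)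
  obtain ⟨v, hv⟩ := exists_ne (0 : V)
  obtain ⟨w, hw⟩ := hB.exists_ne hv
  have h1 : ∀ n : ℕ, ∀ x, ((tvE hB v 1 : End F V) ^ n) x = x + (n * B x v) • v := fun n x => by
    induction n with
    | zero => simp
    | succ n ih => rw [pow_succ', End.mul_apply, ih]; simp [hB.alt]; module
  have h2 : (tvE hB v 1 : End F V) ^ p = 1 := by ext x; simp [h1]
  refine ⟨_, ⟨tvE_mem hB v 1, ⟨1, by simpa using h2⟩, fun c hc => ?_⟩, ?_⟩
  · have h3 := LinearMap.congr_fun hc v
    have h4 := LinearMap.congr_fun hc w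
    simp [hB.alt] at h3 h4
    have h5 : c = 1 := (smul_left_injective F hv (by simpa using h3)).symm
    simp [h5, hv, hB.ne_comm hw] at h4
  have h3 := hB.finrank_perp (Submodule.span F {v})
  rw [finrank_span_singleton hv] at h3
  rw [fx, kd_top, aeval_X_sub_C, one_smul, ← h3, add_comm]
  refine congrArg (fun K : Submodule F V => 1 + finrank F K) (Submodule.ext fun x => ?_)
  simp [hv, mem_perp, Submodule.mem_span_singleton, hB.comm (x := x)]
  exact ⟨fun h => by simp [h], fun h => by simpa using h 1⟩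

theorem fixS_conj (g x : V ≃ₗ[F] V) :
    fixS ((g⁻¹ * x * g : V ≃ₗ[F] V) : End F V) = g⁻¹ • fixS (x : End F V) := by
  ext v
  rw [mem_fixS, smul_sub_eq]
  constructor
  · intro h
    refine ⟨g v, mem_fixS.2 ?_, by simp⟩
    simpa using congrArg g h
  · rintro ⟨u, hu, rfl⟩
    have := mem_fixS.1 hu
    simp only [LinearEquiv.coe_coe] at this
    simp [this]

theorem conj_mem {H : Subgroup (V ≃ₗ[F] V)} {x y g : V ≃ₗ[F] V} (hg : g ∈ Sp B) (hy : y ∈ H)
    (h : ∀ w, g (x w) = y (g w)) : ∃ g ∈ Sp B, g⁻¹ * x * g ∈ H :=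
  ⟨g⁻¹, inv_mem hg, by
    have : g⁻¹⁻¹ * x * g⁻¹ = y := by ext w; simp [h]
    rwa [this]⟩

theorem qP_mul (a k m : ℕ) (hk : 0 < k) : qP a (k * m) =
    qP (a ^ k) m * ∏ j ∈ (Finset.range (k * m)).filter (fun j => ¬ k ∣ j + 1), (a ^ (j + 1) - 1) := by
  rw [qP, ← Finset.prod_filter_mul_prod_filter_not _ (fun j => k ∣ j + 1), qP]
  congr 1
  symm
  refine Finset.prod_nbij (fun i => k * (i + 1) - 1) ?_ ?_ ?_ ?_
  · intro i hi
    simp only [Finset.mem_range, Finset.mem_filter] at hi ⊢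
    have h1 : k * (i + 1) ≤ k * m := Nat.mul_le_mul_left k hi
    have h2 : 0 < k * (i + 1) := by positivity
    exact ⟨by omega, by rw [Nat.sub_add_cancel h2]; exact Dvd.intro _ rfl⟩
  · intro i _ j _ h
    have h1 : 0 < k * (i + 1) := by positivity
    have h2 : 0 < k * (j + 1) := by positivity
    have : k * (i + 1) = k * (j + 1) := by simp only at h; omega
    have := Nat.eq_of_mul_eq_mul_left hk this
    omega
  · intro j hj
    simp only [Finset.coe_filter, Finset.mem_range, Set.mem_setOf_eq] at hj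
    obtain ⟨h1, c, hc⟩ := hj
    obtain ⟨c, rfl⟩ : ∃ c', c = c' + 1 := ⟨c - 1, by
      rcases c with _ | c
      · simp at hc
      · simp⟩
    refine ⟨c, ?_, by simp only; omega⟩
    simp only [Finset.coe_range, Set.mem_Iio]
    have : k * (c + 1) ≤ k * m := by omega
    exact Nat.le_of_mul_le_mul_left this hk
  · intro i _
    have h1 : 0 < k * (i + 1) := by positivity
    rw [Nat.sub_add_cancel h1, pow_mul]

section Ext

variable {K : Type u} [Field K] [Algebra F K] [Module K V] [IsScalarTower F K V]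

variable (F K V) in
/-- the normaliser of `K` -/
def GamG : Subgroup (V ≃ₗ[F] V) where
  carrier := {g | GamL K g}
  one_mem' := ⟨fun c => ⟨c, fun _ => rfl⟩, fun c => ⟨c, fun _ => rfl⟩⟩
  mul_mem' := by
    rintro a b ⟨a1, a2⟩ ⟨b1, b2⟩
    refine ⟨fun c => ?_, fun c => ?_⟩
    · obtain ⟨c1, h1⟩ := b1 c
      obtain ⟨c2, h2⟩ := a1 c1
      exact ⟨c2, fun v => by simp [h1, h2]⟩
    · obtain ⟨c1, h1⟩ := a2 c
      obtain ⟨c2, h2⟩ := b2 c1
      exact ⟨c2, fun v => by rw [mul_inv_rev]; simp [h1, h2]⟩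
  inv_mem' := fun h => ⟨h.2, by simpa using h.1⟩

variable {θ : Dual F K} {BK : V →ₗ[K] V →ₗ[K] K}

theorem gam_fix [Finite K] [FiniteDimensional K V] (hK : Symp BK) (hBK : ∀ x y, B x y = θ (BK x y))
    (hk : (finrank F K).Prime) {g : V ≃ₗ[F] V} (h1 : Semi K g) :
    (finrank F K ∣ fx (g : End F V) ⊤ ∧
      (NdOn B (fixS (g : End F V)) → 2 * finrank F K ∣ fx (g : End F V) ⊤)) ∨
    (2 * fx (g : End F V) ⊤ ≤ finrank F V ∧ ∀ r, g ^ r = 1 → finrank F K ∣ r) := by
  let S : Subalgebra F K :=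
    { carrier := {c | ∀ v, g (c • v) = c • g v}
      mul_mem' := fun ha hb v => by rw [mul_smul, mul_smul, ha, hb]
      add_mem' := fun ha hb v => by rw [add_smul, add_smul, _root_.map_add, ha, hb]
      algebraMap_mem' := fun a v => by simp }
  rw [fx_eq]
  have hU : ∀ v, v ∈ fixS (g : End F V) ↔ g v = v := fun v => mem_fixS
  generalize fixS (g : End F V) = U at hU
  have h4 : ∀ u ∈ U, u ≠ 0 → ∀ c : K, c • u ∈ U → c ∈ S := fun u hu h0 c hc => by
    obtain ⟨c', h5⟩ := h1 c
    rw [hU, h5, (hU u).1 hu, smul_left_inj h0] at hc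
    exact hc ▸ h5
  rcases (Subalgebra.isSimpleOrder_of_finrank_prime F K hk).eq_bot_or_eq_top S with h5 | h5
  · right
    obtain ⟨c, hc⟩ : ∃ c, c ∉ S := by
      by_contra! h6
      rw [h5, ← Algebra.eq_top_iff, Subalgebra.bot_eq_top_iff_finrank_eq_one] at h6
      exact hk.ne_one h6
    have h0 : c ≠ 0 := by
      rintro rfl
      exact hc S.zero_mem
    let e : V ≃ₗ[F] V := rs F (LinearEquiv.smulOfNeZero K V c h0)
    have := Submodule.finrank_add_finrank_le_of_disjoint (s := U) (t := U.map (e : V →ₗ[F] V))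
      (Submodule.disjoint_def.2 (by
        rintro _ hv ⟨u, hu, rfl⟩
        by_contra h6
        exact hc (h4 u hu (by rintro rfl; simp at h6) c hv)))
    rw [LinearEquiv.finrank_map_eq] at this
    refine ⟨by omega, fun r hr => ?_⟩
    obtain ⟨v, hv⟩ : ∃ v : V, v ≠ 0 := by
      by_contra! h6
      exact hc fun v => by rw [h6 (g _), h6 (c • g v)]
    have hv' : g v ≠ 0 := by simpa using hv
    choose s hs using h1
    let σ : K →ₐ[F] K :=
      { toFun := s
        map_one' := smul_left_injective K hv' (by simp only [← hs, one_smul])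
        map_mul' := fun a b => smul_left_injective K hv' (by simp only [← hs, mul_smul])
        map_zero' := smul_left_injective K hv' (by simp only [← hs, zero_smul, map_zero])
        map_add' := fun a b => smul_left_injective K hv' (by simp only [← hs, add_smul, map_add])
        commutes' := fun a => smul_left_injective K hv' (by
          simp only [← hs, algebraMap_smul, map_smul]) }
    let τ : K ≃ₐ[F] K := AlgEquiv.ofBijective σ (Finite.injective_iff_bijective.1 σ.injective)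
    have h6 : ∀ (n : ℕ) (a : K) (w : V), (g ^ n) (a • w) = (τ ^ n) a • (g ^ n) w := by
      intro n
      induction n with
      | zero => simp
      | succ n ih => intro a w; rw [pow_succ', pow_succ']; simp [ih, hs]; rfl
    have h7 : τ ^ r = 1 := AlgEquiv.ext fun a => smul_left_injective K hv (by
      simpa [hr] using (h6 r a v).symm)
    have h8 : τ ≠ 1 := fun h => hc fun w => by
      rw [hs, show s c = c from AlgEquiv.congr_fun h c]
    have : Module.Finite F K := Module.Finite.of_finite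
    have h9 := orderOf_dvd_natCard τ
    rw [IsGalois.card_aut_eq_finrank] at h9
    rw [← ((Nat.dvd_prime hk).1 h9).resolve_left (by simpa using h8)]
    exact orderOf_dvd_of_pow_eq_one h7
  · left
    let U' : Submodule K V :=
      { carrier := U
        add_mem' := U.add_mem
        zero_mem' := U.zero_mem
        smul_mem' := fun c v hv => (hU _).2 (by
          have : c ∈ S := h5 ▸ trivial
          rw [this v, (hU v).1 hv]) }
    have h6 : finrank F U = finrank F K * finrank K U' := (finrank_mul_finrank F K U').symm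
    refine ⟨h6 ▸ Dvd.intro _ rfl, fun h7 => ?_⟩
    have h8 : NdOn BK U' := fun w hw hw0 => by
      obtain ⟨y, hy, h9⟩ := h7 w hw hw0
      exact ⟨y, hy, fun h => h9 (by rw [hBK, h, map_zero])⟩
    obtain ⟨c, hc⟩ := h8.even hK
    exact ⟨c, by rw [h6, hc]; ring⟩

theorem el_fix [Finite K] [FiniteDimensional K V] (hB : Symp B) (hK : Symp BK)
    (hBK : ∀ x y, B x y = θ (BK x y)) (hk : (finrank F K).Prime) {r : ℕ} (H : EL r B (GamG F V K))
    (hf : PO r B f) :
    (finrank F K ∣ fx f ⊤ ∧ (NdOn B (fixS f) → 2 * finrank F K ∣ fx f ⊤)) ∨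
    (2 * fx f ⊤ ≤ finrank F V ∧ (f ^ r = 1 → finrank F K ∣ r)) := by
  obtain ⟨x, hx, rfl⟩ := hf.exists_equiv hB
  obtain ⟨g, hg, h2⟩ := H x hf
  have h3 := gam_fix hK hBK hk h2.1
  have h4 : fx ((g⁻¹ * x * g : V ≃ₗ[F] V) : End F V) ⊤ = fx (x : End F V) ⊤ := by
    rw [fx_eq, fixS_conj, fx_eq]; exact LinearEquiv.finrank_map_eq g⁻¹ _
  rw [h4, fixS_conj] at h3
  exact h3.imp (fun h => ⟨h.1, fun h5 => h.2 (ndOn_smul (inv_mem hg) h5)⟩) fun h => ⟨h.1, fun h5 =>
    h.2 r (by simpa [equiv_pow_eq_one h5] using conj_pow (a := g⁻¹) (b := x) (i := r))⟩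

local notation "q" => Fintype.card F

theorem gam_dvd [Finite K] [FiniteDimensional K V] (hB : Symp B) (hK : Symp BK)
    (hBK : ∀ x y, B x y = θ (BK x y)) {k m : ℕ} (hk : finrank F K = k) (hk0 : 0 < k)
    (hm : finrank K V = 2 * m)
    {r : ℕ} [hr : Fact r.Prime] (h0 : (r : F) ≠ 0) (h : r ∣ (GamG F V K).relIndex (Sp B)) :
    ∃ j, 0 < j ∧ j ≤ k * m ∧ ¬ k ∣ j ∧ r ∣ q ^ (2 * j) - 1 := by
  have := Fintype.ofFinite K
  have := finite_linearEquiv (F := F) (V := V)
  have hd : finrank F V = 2 * (k * m) := by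
    rw [← finrank_mul_finrank F K V, hk, hm]; ring
  have h6 := relIndex_dvd_of (H := GamG F V K) (K := Sp B) (MonoidHom.mk' (fun g : Sp BK => rs F g.1)
    fun _ _ => rfl) (fun a b e => Subtype.ext (LinearEquiv.ext fun v =>
      LinearEquiv.congr_fun (show rs F a.1 = rs F b.1 from e) v))
    (fun g => rs_gamL g.1) (fun g u v =>
      show B (g.1 u) (g.1 v) = B u v by rw [hBK, hBK, g.2])
    (c := q ^ (k * m) ^ 2 * ∏ j ∈ (Finset.range (k * m)).filter (fun j => ¬ k ∣ j + 1),
      ((q ^ 2) ^ (j + 1) - 1)) (by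
      rw [card_Sp hB hd, card_Sp hK hm, qP_mul _ _ _ hk0, Module.card_eq_pow_finrank (K := F) (V := K),
        hk, ← pow_mul q 2 k, ← pow_mul q k 2, mul_comm k 2]
      exact ⟨(q ^ k) ^ m ^ 2, by ring⟩)
  obtain ⟨j, h7, h8⟩ := (Prime.dvd_finsetProd_iff hr.out.prime _).1
    ((hr.out.dvd_mul.1 (h.trans h6)).resolve_left
      fun h2 => not_dvd_card h0 (hr.out.dvd_of_dvd_pow h2))
  rw [Finset.mem_filter, Finset.mem_range] at h7
  exact ⟨j + 1, by omega, by omega, h7.2, by rwa [pow_mul]⟩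

theorem exists_omega (h2 : (2 : F) ≠ 0) (hk : finrank F K = 2) : ∃ (ω : K) (δ : F),
    ω * ω = algebraMap F K δ ∧ (∀ a : F, ω ≠ algebraMap F K a) ∧
      ∀ c : K, ∃ a b : F, c = algebraMap F K a + algebraMap F K b * ω := by
  have : Module.Finite F K := Module.finite_of_finrank_pos (by omega)
  obtain ⟨c, -, hc⟩ := exists_mem_not_mem_of_finrank_lt (K := (⊤ : Submodule F K))
    (L := Submodule.span F {1}) (by rw [finrank_top, finrank_span_singleton one_ne_zero]; omega)
  have h1 : ∀ z : K, ∃ a b : F, z = algebraMap F K a + algebraMap F K b * c := by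
    intro z
    have : Submodule.span F {c, 1} = ⊤ := Submodule.eq_top_of_finrank_eq (by
      rw [Submodule.span_insert, sup_comm, Submodule.finrank_sup_span_singleton hc,
        finrank_span_singleton one_ne_zero, hk])
    obtain ⟨a, b, hab⟩ := Submodule.mem_span_pair.1 (this ▸ Submodule.mem_top : z ∈ _)
    exact ⟨b, a, by rw [← hab, Algebra.smul_def, Algebra.smul_def, mul_one, add_comm]⟩
  obtain ⟨a, b, hab⟩ := h1 (c * c)
  have h2' : (2 : K) ≠ 0 := by
    rw [← map_ofNat (algebraMap F K) 2]; exact (_root_.map_ne_zero _).2 h2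
  refine ⟨c - algebraMap F K (b / 2), a + b ^ 2 / 4, ?_, fun t ht => hc ?_, fun z => ?_⟩
  · have h4 : (4 : K) ≠ 0 := by
      rw [show (4 : K) = 2 * 2 by norm_num]; exact mul_ne_zero h2' h2'
    simp only [map_add, map_div₀, map_pow, map_ofNat]
    field_simp
    linear_combination 16 * hab
  · exact Submodule.mem_span_singleton.2 ⟨t + b / 2, by
      rw [Algebra.smul_def, mul_one, map_add, ← ht]; ring⟩
  · obtain ⟨s, t, rfl⟩ := h1 z
    exact ⟨s + t * (b / 2), t, by simp only [map_add, map_mul]; ring⟩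

theorem gam_el_two [Finite K] [FiniteDimensional K V] (hB : Symp B) (hK : Symp BK)
    (hBK : ∀ x y, B x y = θ (BK x y)) (h2 : (2 : F) ≠ 0) (hk : finrank F K = 2)
    (hm : finrank K V = 2) : EL 2 B (GamG F V K) := fun x hx => by
  have hn : finrank F V = 4 := by rw [← finrank_mul_finrank F K V, hk, hm]
  rcases hx.two hB with h1 | h1
  · obtain ⟨ω, δ, k1, k2, k3⟩ := exists_omega h2 hk
    have : Nontrivial V := finrank_pos_iff.1 (show 0 < finrank F V by omega)
    obtain ⟨e, he⟩ := exists_ne (0 : V)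
    have hsa : ∀ (c : K) u v, B (c • u) v = B u (c • v) := fun c u v => by simp [hBK]
    have halt : ∀ (c : K) u, B u (c • u) = 0 := fun c u => by simp [hBK, hK.alt]
    have halt' : ∀ (c : K) u, B (c • u) u = 0 := fun c u => by simp [hBK, hK.alt]
    obtain ⟨f, a1, a2⟩ := hB.exists_perp (K := Submodule.span F {ω • e}) (x := e) (by
      intro h
      obtain ⟨c, hc⟩ := Submodule.mem_span_singleton.1 h
      have h3 : algebraMap F K c * ω = 1 := smul_left_injective K he (by
        simp only [mul_smul, algebraMap_smul, hc, one_smul])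
      exact k2 c⁻¹ (by rw [map_inv₀]; exact eq_inv_of_mul_eq_one_right h3))
    have a3 : B (ω • e) f = 0 := a1 _ (Submodule.mem_span_singleton_self _)
    have a4 : B e (ω • f) = 0 := by rw [← hsa, a3]
    have a5 : ∀ v, ∃ s t : K, v = s • e + t • f := by
      intro v
      have : Submodule.span K {e, f} = ⊤ := Submodule.eq_top_of_finrank_eq (by
        rw [finrank_pair hK (fun h => by rw [hBK, h] at a2; simp at a2), hm])
      obtain ⟨s, t, h⟩ := Submodule.mem_span_pair.1 (this ▸ Submodule.mem_top : v ∈ _)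
      exact ⟨s, t, h.symm⟩
    have a6 : ∀ v, rf B e f (ω • v) = -ω • rf B e f v := by
      intro v
      obtain ⟨s, t, rfl⟩ := a5 v
      obtain ⟨s1, s2, rfl⟩ := k3 s
      obtain ⟨t1, t2, rfl⟩ := k3 t
      have b1 : ∀ u : V, ω • ω • u = δ • u := fun u => by rw [smul_smul, k1, algebraMap_smul]
      have b2 : ∀ (a : F) (u : V), ω • a • u = a • ω • u := fun a u => smul_comm _ _ _
      simp only [add_smul, mul_smul, algebraMap_smul, smul_add, b1, b2, rf_apply, map_add, map_smul,
        LinearMap.add_apply, LinearMap.smul_apply, a2, a3, a4, hB.alt, halt, halt', neg_smul,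
        smul_sub, smul_eq_mul]
      generalize ω • e = e'
      generalize ω • f = f'
      module
    obtain ⟨y, -, hy⟩ := exists_Sp hB _ (rf_is hB a2)
    have a7 : Semi K y := fun c => by
      obtain ⟨s, t, rfl⟩ := k3 c
      refine ⟨algebraMap F K s + algebraMap F K t * -ω, fun v => ?_⟩
      simp only [hy, add_smul, mul_smul, algebraMap_smul, map_add, map_smul, a6]
    have a8 : y⁻¹ = y := inv_eq_of_mul_eq_one_right (by ext v; simp [hy, rf_sq hB a2])
    obtain ⟨g, hg, a9⟩ := conj_pos hB h2 hx.is (rf_is hB a2) h1 (rf_sq hB a2) (by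
      have := rf_fx hB h2 a2
      rw [fx_four hB h2 hn hx h1]; omega)
    exact conj_mem hg (y := y) ⟨a7, a8.symm ▸ a7⟩ fun w => by rw [hy]; exact a9 w
  · obtain ⟨J, k1, k2⟩ := exists_J hK
    obtain ⟨y, -, hy⟩ := exists_Sp hK J k1
    obtain ⟨g, hg, a9⟩ := conj_neg hB h2 hx.is (y := rs F y) (fun u v => by
      simp [hy, hBK, k1 u v]) h1 (fun v => by simp [hy, k2])
    exact conj_mem hg (y := rs F y) (rs_gamL _) a9

theorem gam_el_iff [Finite K] [FiniteDimensional K V] (hB : Symp B) (hK : Symp BK)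
    (hBK : ∀ x y, B x y = θ (BK x y)) {k d : ℕ} (hk : finrank F K = k) (hk0 : k.Prime)
    (hd : finrank F V = 2 * d) (hd2 : 2 ≤ d)
    {r : ℕ} [hr : Fact r.Prime] (h : r ∣ (GamG F V K).relIndex (Sp B)) :
    EL r B (GamG F V K) ↔ r = 2 ∧ d = 2 ∧ k = 2 ∧ Odd q := by
  obtain ⟨m, hm⟩ := ((ni_top (f := 1) hK).nd.even hK).two_dvd
  rw [finrank_top] at hm
  have hkm : d = k * m := by
    have := finrank_mul_finrank F K V
    rw [hk, hm, hd, mul_left_comm] at this
    omega
  have hk2 := hk0.two_le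
  have hm0 : 0 < m := Nat.pos_of_ne_zero (by rintro rfl; omega)
  have hkd : k ≤ d := hkm ▸ Nat.le_mul_of_pos_right k hm0
  have hodd : Odd q ↔ (2 : F) ≠ 0 := by
    refine ⟨two_ne_zero_of_odd, fun h => Nat.not_even_iff_odd.1 fun h' => ?_⟩
    exact not_dvd_card (F := F) (r := 2) (by exact_mod_cast h) h'.two_dvd
  constructor
  swap
  · rintro ⟨rfl, rfl, rfl, h1⟩
    exact gam_el_two hB hK hBK (hodd.1 h1) hk (by omega)
  intro H
  by_cases h0 : (r : F) = 0
  · have : CharP F r := (CharP.charP_iff_prime_eq_zero hr.out).2 h0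
    obtain ⟨f, h1, h2⟩ := exists_tv' hB (by omega) (p := r)
    rcases el_fix hB hK hBK (hk ▸ hk0) H h1 with ⟨h3, -⟩ | ⟨h3, -⟩
    · rw [hk] at h3
      have : k ∣ fx f ⊤ + 1 := by rw [h2, hd, hkm]; exact Dvd.dvd.mul_left (Dvd.intro _ rfl) _
      have := Nat.le_of_dvd one_pos ((Nat.dvd_add_right h3).1 this)
      omega
    · omega
  by_cases hr2 : r = 2
  · subst hr2
    have h2 : (2 : F) ≠ 0 := by exact_mod_cast h0
    have : Nontrivial V := finrank_pos_iff.1 (show 0 < finrank F V by omega)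
    obtain ⟨e, he⟩ := exists_ne (0 : V)
    obtain ⟨f, a2⟩ := hB.exists_one he
    have a3 := rf_fx hB h2 a2
    rcases el_fix hB hK hBK (hk ▸ hk0) H (po_two_of hB (rf_is hB a2) (rf_sq hB a2) (by omega)
      (by omega)) with ⟨-, h3⟩ | ⟨h3, -⟩
    · have h4 := h3 (nd_fixS hB (rf_is hB a2) h2 (rf_sq hB a2))
      rw [hk] at h4
      have : 2 * k ∣ fx (rf B e f) ⊤ + 2 := by
        rw [a3, hd, hkm]; exact Nat.mul_dvd_mul_left 2 (Dvd.intro _ rfl)
      have := Nat.le_of_dvd two_pos ((Nat.dvd_add_right h4).1 this)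
      omega
    · exact ⟨rfl, by omega, by omega, hodd.2 h2⟩
  exfalso
  obtain ⟨j, h1, h2, h3, h4⟩ := gam_dvd hB hK hBK hk hk0.pos hm h0 h
  have h5 := cv_dvd_of h4
  have h6 := Nat.le_of_dvd (by omega) h5
  have h7 := cv_pos (ord_pos h0)
  obtain ⟨f, k1, k2⟩ := exists_ss hB h0 hr2 (e := finrank F V - cv (orderOf ((q : ℕ) : ZMod r))) (s := 1) (by omega)
  rcases el_fix hB hK hBK (hk ▸ hk0) H (k1.po (by omega)) with ⟨-, h8⟩ | ⟨h8, h9⟩
  · have h9 := h8 (k1.ni_fix (ni_top hB)).nd
    rw [hk, k2] at h9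
    have : 2 * k ∣ finrank F V := by
      rw [hd, hkm]; exact Nat.mul_dvd_mul_left 2 (Dvd.intro _ rfl)
    have := ((Nat.dvd_sub_iff_right (by omega) this).1 h9).trans h5
    exact h3 (Nat.dvd_of_mul_dvd_mul_left two_pos this)
  · have := Nat.le_of_dvd hr.out.pos (hk ▸ h9 k1.pow)
    have := (Nat.prime_dvd_prime_iff_eq hk0 hr.out).1 (hk ▸ h9 k1.pow)
    have := cv_le h0 hr2
    omega

end Ext

open Matrix in
theorem ext_bridge' {ι : Type} [Fintype ι] [DecidableEq ι] {r : ℕ} (hr : 0 < r)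
    {K : Subalgebra F (Matrix ι ι F)} (hK : Geo.IsFieldSubalgebra r K) :
    ∃ (L : Type u) (_ : Field L) (_ : Algebra F L) (_ : Module L (ι → F))
      (_ : IsScalarTower F L (ι → F)), finrank F L = r ∧ (∀ c : L, ∃ k ∈ K, ∀ v, c • v = k *ᵥ v) ∧
      ∀ g : GL ι F, g ∈ Geo.subalgebraNormalizer K ↔ GamL L (gl0 g) := by
  have hnt : Nontrivial K := Module.nontrivial_of_finrank_pos (R := F) (hK.finrank_eq ▸ hr)
  have hf : IsField K :=
    { exists_pair_ne := exists_pair_ne K
      mul_comm := fun x y => Subtype.ext (hK.comm _ x.2 _ y.2)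
      mul_inv_cancel := fun {x} hx => by
        obtain ⟨y, hy, hxy⟩ := hK.inv _ x.2 fun h => hx (Subtype.ext h)
        exact ⟨⟨y, hy⟩, Subtype.ext hxy⟩ }
  let _ : Field K := hf.toField
  let _ : Module K (ι → F) :=
    { smul := fun c v => (c : Matrix ι ι F) *ᵥ v
      one_smul := fun v => Matrix.one_mulVec v
      mul_smul := fun a b v => (Matrix.mulVec_mulVec v _ _).symm
      smul_zero := fun a => Matrix.mulVec_zero _
      smul_add := fun a v w => Matrix.mulVec_add _ _ _
      add_smul := fun a b v => Matrix.add_mulVec _ _ _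
      zero_smul := fun v => Matrix.zero_mulVec _ }
  have hsm : ∀ (c : K) (v : ι → F), c • v = (c : Matrix ι ι F) *ᵥ v := fun _ _ => rfl
  have : IsScalarTower F K (ι → F) := ⟨fun a c v => Matrix.smul_mulVec a _ _⟩
  have hsemi : ∀ g : GL ι F, Semi K (gl0 g) ↔ ∀ k ∈ K,
      (g : Matrix ι ι F) * k * ((g⁻¹ : GL ι F) : Matrix ι ι F) ∈ K := by
    intro g
    constructor
    · intro h k hk
      obtain ⟨c', hc'⟩ := h ⟨k, hk⟩
      have : (g : Matrix ι ι F) * k = c' * g := by
        apply Matrix.toLin'.injective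
        apply LinearMap.ext
        intro v
        simpa [gl0_apply, hsm] using hc' v
      rw [this, mul_assoc, Units.mul_inv, mul_one]
      exact c'.2
    · intro h c
      refine ⟨⟨_, h c c.2⟩, fun v => ?_⟩
      simp [gl0_apply, hsm, mul_assoc]
  refine ⟨K, _, inferInstance, _, this, hK.finrank_eq, fun c => ⟨c, c.2, fun _ => rfl⟩, fun g => ?_⟩
  rw [GamL, ← map_inv, hsemi, hsemi]
  constructor
  · intro h
    exact ⟨fun k hk => (h k).1 hk, fun k hk => (inv_mem h k).1 hk⟩
  · rintro ⟨h1, h2⟩ k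
    refine ⟨h1 k, fun hk => ?_⟩
    simpa [mul_assoc] using h2 _ hk

end Cfsg.Agent.LD
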